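import Mathlib
import Cfsg.Agent.Lib.Helper85.USim.Defs
import Cfsg.Agent.Lib.Helper45.HermBasic

/-!
# USIM (S5982): package [NSQ]

`x² = c` with `x` conjugate into the similarity group of the hermitian form forces `c` to be a
square (odd characteristic).
-/

set_option autoImplicit false
open scoped MatrixGroups

namespace Cfsg.Agent.Lib.Helper10.USim

open Cfsg.Agent.Lib.Helper85.USim

universe u

/-- Matrix core of [NSQ]: `Y² = c`, `Yᵀ Y^σ = τ` give `c^(q₀+1) = τ²` and `τ^q₀ = τ`. -/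
theorem nsq_core {F : Type u} [Field F] [Fintype F] (q₀ n : ℕ) (hF : Fintype.card F = q₀ ^ 2)
    (hn : 1 ≤ n) (Y : Matrix (Fin n) (Fin n) F) (c τ : F)
    (hYY : Y * Y = c • (1 : Matrix (Fin n) (Fin n) F))
    (hY : Y.transpose * Y.map (fun a => a ^ q₀) = τ • (1 : Matrix (Fin n) (Fin n) F)) :
    c * c ^ q₀ = τ * τ ∧ τ ^ q₀ = τ := by
  classical
  obtain ⟨σ, hσa⟩ : ∃ σ : F →+* F, ∀ a : F, σ a = a ^ q₀ :=
    ⟨Cfsg.Agent.Lib.Helper45.sigmaQ hF, fun a => rfl⟩
  have hmapS : Y.map (fun a => a ^ q₀) = σ.mapMatrix Y := by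
    ext i j
    simp only [RingHom.mapMatrix_apply, Matrix.map_apply, hσa]
  rw [hmapS] at hY
  have hscal : ∀ a : F, σ.mapMatrix (a • (1 : Matrix (Fin n) (Fin n) F)) = (a ^ q₀) • 1 := by
    intro a
    ext i j
    simp only [RingHom.mapMatrix_apply, Matrix.map_apply, Matrix.smul_apply, Matrix.one_apply,
      smul_eq_mul]
    split_ifs
    · rw [mul_one, mul_one, hσa]
    · rw [mul_zero, mul_zero, map_zero]
  have hSS : σ.mapMatrix Y * σ.mapMatrix Y = (c ^ q₀) • (1 : Matrix (Fin n) (Fin n) F) := by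
    rw [← map_mul, hYY, hscal]
  have hTT : Y.transpose * Y.transpose = c • (1 : Matrix (Fin n) (Fin n) F) := by
    rw [← Matrix.transpose_mul, hYY, Matrix.transpose_smul, Matrix.transpose_one]
  have entry : ∀ a b : F, a • (1 : Matrix (Fin n) (Fin n) F) = b • 1 → a = b := by
    intro a b h
    have := congrFun (congrFun h ⟨0, hn⟩) ⟨0, hn⟩
    simpa [Matrix.smul_apply] using this
  constructor
  · apply entry
    have h1 : Y.transpose * (Y.transpose * σ.mapMatrix Y) * σ.mapMatrix Y =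
        (τ * τ) • (1 : Matrix (Fin n) (Fin n) F) := by
      rw [hY, Matrix.mul_smul, Matrix.mul_one, Matrix.smul_mul, hY, smul_smul]
    have h2 : Y.transpose * (Y.transpose * σ.mapMatrix Y) * σ.mapMatrix Y =
        (c * c ^ q₀) • (1 : Matrix (Fin n) (Fin n) F) := by
      rw [← Matrix.mul_assoc, Matrix.mul_assoc, hTT, hSS, Matrix.smul_mul, Matrix.one_mul,
        smul_smul]
    rw [← h2, h1]
  · apply entry
    have hσS : σ.mapMatrix (σ.mapMatrix Y) = Y := by
      ext i j
      simp only [RingHom.mapMatrix_apply, Matrix.map_apply, hσa]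
      exact Cfsg.Agent.Lib.Helper45.conj_conj hF _
    have h3 : (σ.mapMatrix Y.transpose).transpose = σ.mapMatrix Y := by
      ext i j
      simp only [RingHom.mapMatrix_apply, Matrix.map_apply, Matrix.transpose_apply]
    have h1 : (σ.mapMatrix (Y.transpose * σ.mapMatrix Y)).transpose =
        (σ.mapMatrix (τ • (1 : Matrix (Fin n) (Fin n) F))).transpose := by rw [hY]
    rw [map_mul, Matrix.transpose_mul, hσS, h3, hscal, Matrix.transpose_smul,
      Matrix.transpose_one] at h1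
    rw [← h1, hY]

/-- **[NSQ]** -/
theorem pNSq (hmem : PMem.{u}) : PNSq.{u} := by
  intro F _ _ q₀ n hF h2 hn x g c hx hmemY
  classical
  obtain ⟨τ, hτ, hY⟩ := (hmem q₀ n hF (g⁻¹ * x * g)).1 hmemY
  have hYY : ((g⁻¹ * x * g : GL (Fin n) F) : Matrix (Fin n) (Fin n) F) *
      ((g⁻¹ * x * g : GL (Fin n) F) : Matrix (Fin n) (Fin n) F) = c • 1 := by
    have h1 : (g⁻¹ * x * g) * (g⁻¹ * x * g) = g⁻¹ * (x * x) * g := by group
    rw [← Units.val_mul, h1]
    simp only [Units.val_mul]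
    rw [← pow_two, hx, Matrix.mul_smul, Matrix.mul_one, Matrix.smul_mul, ← Units.val_mul,
      inv_mul_cancel, Units.val_one]
  obtain ⟨hcc, hτq⟩ := nsq_core q₀ n hF hn _ c τ hYY hY
  have hchar : ringChar F ≠ 2 := by
    intro h
    have : CharP F 2 := h ▸ ringChar.charP F
    exact h2 (CharTwo.two_eq_zero)
  have hodd : Fintype.card F % 2 = 1 := FiniteField.odd_card_of_char_ne_two hchar
  have hc0 : c ≠ 0 := by
    intro h0
    rw [h0, zero_mul] at hcc
    exact mul_self_ne_zero.2 hτ hcc.symm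
  obtain ⟨k, hk⟩ : ∃ k, q₀ = 2 * k + 1 := by
    rcases Nat.even_or_odd q₀ with he | ho
    · exfalso
      have : Even (q₀ ^ 2) := he.pow_of_ne_zero (by norm_num)
      rw [← hF] at this
      rw [Nat.even_iff] at this
      omega
    · obtain ⟨k, hk⟩ := ho
      exact ⟨k, hk⟩
  rw [FiniteField.isSquare_iff hchar hc0, hF]
  have e1 : q₀ ^ 2 / 2 = (q₀ + 1) * k := by
    subst hk
    have : (2 * k + 1) ^ 2 = 2 * ((2 * k + 1 + 1) * k) + 1 := by ring
    rw [this]
    omega
  rw [e1, pow_mul, pow_succ, mul_comm (c ^ q₀) c, hcc, ← pow_two, ← pow_mul]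
  have h3 : τ ^ (2 * k) * τ = 1 * τ := by
    rw [← pow_succ, ← hk, one_mul]
    exact hτq
  exact mul_right_cancel₀ hτ h3

end Cfsg.Agent.Lib.Helper10.USim
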