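import Mathlib
import Cfsg.Agent.Lib.Helper85.USim.Defs
import Cfsg.Agent.Lib.Helper45.HermBasic
import Cfsg.Agent.Lib.Helper40.Subf3

/-!
# USIM (S5982): package [RANK]

Twisted rank symmetry of elements conjugate into the similarity group of the hermitian form.
-/

set_option autoImplicit false
open scoped MatrixGroups

namespace Cfsg.Agent.Lib.Helper10.USim

open Cfsg.Agent.Lib.Helper85.USim

universe u

/-- Matrix core of [RANK]. -/
theorem rank_core {F : Type u} [Field F] [Fintype F] (q₀ n : ℕ) (hF : Fintype.card F = q₀ ^ 2)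
    (Y : Matrix (Fin n) (Fin n) F) (hYdet : IsUnit Y.det) (τ : F)
    (hY : Y.transpose * Y.map (fun a => a ^ q₀) = τ • (1 : Matrix (Fin n) (Fin n) F))
    (μ : F) (hμ : μ ≠ 0) :
    (Y - μ • (1 : Matrix (Fin n) (Fin n) F)).rank =
      (Y - (τ * (μ ^ q₀)⁻¹) • (1 : Matrix (Fin n) (Fin n) F)).rank := by
  classical
  set σ := Cfsg.Agent.Lib.Helper45.sigmaQ hF with hσ
  have hσa : ∀ a : F, σ a = a ^ q₀ := fun a => rfl
  have hmapS : Y.map (fun a => a ^ q₀) = Y.map σ := rfl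
  rw [hmapS] at hY
  have hμq : μ ^ q₀ ≠ 0 := pow_ne_zero _ hμ
  have hq0 : q₀ ≠ 0 := by have := Cfsg.Agent.Lib.Helper45.two_le_q hF; omega
  have h1 : (Y - μ • (1 : Matrix (Fin n) (Fin n) F)).rank =
      (Y.map σ - (μ ^ q₀) • (1 : Matrix (Fin n) (Fin n) F)).rank := by
    rw [← Cfsg.Agent.Lib.Helper40.Subf.rank_map σ (Y - μ • (1 : Matrix (Fin n) (Fin n) F))]
    congr 1
    ext i j
    simp only [Matrix.map_apply, Matrix.sub_apply, Matrix.smul_apply, Matrix.one_apply, map_sub,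
      smul_eq_mul]
    split_ifs <;> simp [hσa, hq0]
  have h2 : Y.transpose * (Y.map σ - (μ ^ q₀) • (1 : Matrix (Fin n) (Fin n) F)) =
      (-(μ ^ q₀)) • (Y - (τ * (μ ^ q₀)⁻¹) • (1 : Matrix (Fin n) (Fin n) F)).transpose := by
    rw [Matrix.mul_sub, hY, Matrix.mul_smul, Matrix.mul_one, Matrix.transpose_sub,
      Matrix.transpose_smul, Matrix.transpose_one, smul_sub, smul_smul]
    have : -(μ ^ q₀) * (τ * (μ ^ q₀)⁻¹) = -τ := by field_simp
    rw [this, neg_smul, neg_smul, sub_neg_eq_add, add_comm, sub_eq_add_neg]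
  have hYt : IsUnit Y.transpose.det := by rw [Matrix.det_transpose]; exact hYdet
  rw [h1, ← Matrix.rank_mul_eq_right_of_isUnit_det Y.transpose _ hYt, h2,
    Matrix.rank_smul_of_mem_nonZeroDivisors _ (mem_nonZeroDivisors_of_ne_zero (neg_ne_zero.2 hμq)),
    Matrix.rank_transpose]

/-- **[RANK]** -/
theorem pRank (hmem : PMem.{u}) : PRank.{u} := by
  intro F _ _ q₀ n hF x g hmemY
  classical
  obtain ⟨τ, hτ, hY⟩ := (hmem q₀ n hF (g⁻¹ * x * g)).1 hmemY
  refine ⟨τ, hτ, fun μ => ?_⟩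
  have hgdet : IsUnit (g : Matrix (Fin n) (Fin n) F).det :=
    (Matrix.isUnit_iff_isUnit_det _).1 g.isUnit
  have hgidet : IsUnit ((g⁻¹ : GL (Fin n) F) : Matrix (Fin n) (Fin n) F).det :=
    (Matrix.isUnit_iff_isUnit_det _).1 (g⁻¹).isUnit
  have hYdet : IsUnit ((g⁻¹ * x * g : GL (Fin n) F) : Matrix (Fin n) (Fin n) F).det :=
    (Matrix.isUnit_iff_isUnit_det _).1 (g⁻¹ * x * g).isUnit
  have hconj : ∀ ν : F, ((x : Matrix (Fin n) (Fin n) F) - ν • 1).rank =
      (((g⁻¹ * x * g : GL (Fin n) F) : Matrix (Fin n) (Fin n) F) - ν • 1).rank := by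
    intro ν
    have h1 : ((g⁻¹ * x * g : GL (Fin n) F) : Matrix (Fin n) (Fin n) F) - ν • 1 =
        ((g⁻¹ : GL (Fin n) F) : Matrix (Fin n) (Fin n) F) *
          ((x : Matrix (Fin n) (Fin n) F) - ν • 1) * (g : Matrix (Fin n) (Fin n) F) := by
      rw [Matrix.mul_sub, Matrix.sub_mul, Matrix.mul_smul, Matrix.mul_one, Matrix.smul_mul,
        ← Units.val_mul g⁻¹ g, inv_mul_cancel, Units.val_one, Units.val_mul, Units.val_mul]
    rw [h1, Matrix.rank_mul_eq_left_of_isUnit_det _ _ hgdet,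
      Matrix.rank_mul_eq_right_of_isUnit_det _ _ hgidet]
  rw [hconj μ, hconj (τ * (μ ^ q₀)⁻¹)]
  by_cases hμ : μ = 0
  · subst hμ
    rw [zero_pow (by have := Cfsg.Agent.Lib.Helper45.two_le_q hF; omega), inv_zero, mul_zero]
  · exact rank_core q₀ n hF _ hYdet τ hY μ hμ

end Cfsg.Agent.Lib.Helper10.USim
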